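import Mathlib

/-! A quotient of a finite abelian group is isomorphic to a subgroup. -/

namespace H68.AbQuot

theorem exists_subgroup_equiv_of_surj {B C : Type*} [CommGroup B] [CommGroup C] [Finite B]
    (f : B →* C) (hf : Function.Surjective f) : ∃ D : Subgroup B, Nonempty (C ≃* D) := by
  have : Finite C := Finite.of_surjective f hf
  obtain ⟨eC⟩ := CommGroup.monoidHom_mulEquiv_of_hasEnoughRootsOfUnity C ℂ
  obtain ⟨eB⟩ := CommGroup.monoidHom_mulEquiv_of_hasEnoughRootsOfUnity B ℂ
  let g : (C →* ℂˣ) →* (B →* ℂˣ) :=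
    { toFun := fun χ => χ.comp f
      map_one' := rfl
      map_mul' := fun _ _ => rfl }
  have hg : Function.Injective g := by
    intro χ ψ h
    ext c
    obtain ⟨b, rfl⟩ := hf c
    exact congrArg Units.val (DFunLike.congr_fun h b)
  let k : C →* B := eB.toMonoidHom.comp (g.comp eC.symm.toMonoidHom)
  have hk : Function.Injective k := eB.injective.comp (hg.comp eC.symm.injective)
  exact ⟨k.range, ⟨MonoidHom.ofInjective hk⟩⟩

end H68.AbQuot
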