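import Cfsg.Agent.Lib.H18.DetChar
import Cfsg.Agent.Lib.H18.CharInd
import Cfsg.Agent.Lib.H4.CenterIndex

/-! The square of the order of a linear character of a stem kernel divides the index. -/

set_option autoImplicit false

open scoped ComplexConjugate

namespace H68.SchurExp

open Cfsg Representation H18.CharBasic H18.CharOrtho H18.CharInd

universe u

variable {Γ : Type u} [Group Γ] [Finite Γ]

theorem term_dvd (A : Subgroup Γ) (hc : A ≤ Subgroup.center Γ) (hA : A ≤ commutator Γ) (lam : A →* ℂˣ)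
    [Fintype Γ] {χ : Γ → ℂ} (hχ : IsIrrCharacter Γ χ) :
    ∃ k : ℕ, classInner (indFun A (fun a => (lam a : ℂ))) χ * χ 1 = ((orderOf lam ^ 2 * k : ℕ) : ℂ) := by
  classical
  have : Fintype A := Fintype.ofFinite A
  obtain ⟨n, ρ, hρ, rfl⟩ := hχ
  have hirr : IsIrrCharacter Γ ρ.character := ⟨n, ρ, hρ, rfl⟩
  have hn : 0 < n := by
    have := H4.CharBasic.finrank_pos_of_isIrreducible hρ
    rwa [Module.finrank_fin_fun] at this
  have hone : ρ.character 1 = (n : ℂ) := by
    rw [Representation.char_one, Module.finrank_fin_fun]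
  have hex : ∀ a : A, ∃ c : ℂ, ρ (a : Γ) = c • (LinearMap.id : (Fin n → ℂ) →ₗ[ℂ] (Fin n → ℂ)) :=
    fun a => H4.CenterIndex.exists_scalar_of_center ρ hρ (hc a.2)
  choose c hcc using hex
  have hinj : ∀ x y : ℂ, x • (LinearMap.id : (Fin n → ℂ) →ₗ[ℂ] (Fin n → ℂ)) = y • LinearMap.id → x = y := by
    intro x y h
    have h1 := congrFun (DFunLike.congr_fun h (fun _ => (1 : ℂ))) ⟨0, hn⟩
    simpa using h1
  let ω0 : A →* ℂ :=
    { toFun := c
      map_one' := by
        apply hinj
        rw [← hcc]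
        simp
        rfl
      map_mul' := by
        intro a b
        apply hinj
        rw [← hcc, Subgroup.coe_mul, map_mul, hcc, hcc]
        ext i j
        simp
        ring }
  let ω : A →* ℂˣ := ω0.toHomUnits
  have hω : ∀ a, (ω a : ℂ) = c a := fun a => rfl
  have hchar : (fun a : A => ρ.character (a : Γ)) = (n : ℂ) • (fun a : A => (ω a : ℂ)) := by
    funext a
    show LinearMap.trace ℂ _ (ρ (a : Γ)) = (n : ℂ) * (ω a : ℂ)
    rw [hcc, map_smul, LinearMap.trace_id, Module.finrank_fin_fun, hω, smul_eq_mul, mul_comm]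
  have hfr := frobenius A (fun a => (lam a : ℂ)) (isClassFunction_of_isIrr hirr)
  rw [hfr, hchar, H18.CharOrtho.inner_smul_right, hone]
  have hconj : conj (n : ℂ) = n := Complex.conj_natCast n
  rw [hconj]
  by_cases hlω : lam = ω
  · have h1 : orderOf lam ∣ n := by
      apply orderOf_dvd_of_pow_eq_one
      ext a
      have h2 : H18.DetChar.detHom ρ (a : Γ) = 1 := by
        have h3 : commutator Γ ≤ (H18.DetChar.detHom ρ).ker := Abelianization.commutator_subset_ker _
        exact h3 (hA a.2)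
      have h3 : LinearMap.det (ρ (a : Γ)) = 1 := by
        rw [← H18.DetChar.detHom_apply, h2]; rfl
      rw [hcc, LinearMap.det_smul, LinearMap.det_id, Module.finrank_fin_fun, mul_one] at h3
      show (lam a : ℂ) ^ n = 1
      rw [hlω, hω, h3]
    obtain ⟨k, hk⟩ := h1
    refine ⟨k ^ 2, ?_⟩
    rw [← hlω, inner_irr_self (isIrrCharacter_of_hom lam)]
    have h4 : orderOf lam ^ 2 * k ^ 2 = n * n := by
      conv_rhs => rw [hk]
      ring
    rw [h4]
    push_cast
    ring
  · refine ⟨0, ?_⟩
    have h1 : classInner (fun a : A => (lam a : ℂ)) (fun a : A => (ω a : ℂ)) = 0 := by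
      apply inner_irr_ne (isIrrCharacter_of_hom lam) (isIrrCharacter_of_hom ω)
      intro h
      apply hlω
      ext a
      exact congrFun h a
    rw [h1]
    simp

theorem sq_dvd (A : Subgroup Γ) (hc : A ≤ Subgroup.center Γ) (hA : A ≤ commutator Γ) (lam : A →* ℂˣ) :
    orderOf lam ^ 2 ∣ A.index := by
  classical
  have := Fintype.ofFinite Γ
  have := Fintype.ofFinite (IrrCharacter Γ)
  choose k hk using fun χ : IrrCharacter Γ => term_dvd A hc hA lam χ.2
  have h1 := congrFun (mem_classFun_expand (isClassFunction_indFun A (fun a => (lam a : ℂ)))) 1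
  rw [indFun_one, Finset.sum_apply] at h1
  have h2 : (A.index : ℂ) = ((orderOf lam ^ 2 * ∑ χ : IrrCharacter Γ, k χ : ℕ) : ℂ) := by
    rw [Finset.mul_sum, Nat.cast_sum]
    simp only [map_one, Units.val_one, mul_one] at h1
    rw [h1]
    refine Finset.sum_congr rfl (fun χ _ => ?_)
    rw [← hk]
    rfl
  have h3 : A.index = orderOf lam ^ 2 * ∑ χ : IrrCharacter Γ, k χ := by exact_mod_cast h2
  exact ⟨_, h3⟩

end H68.SchurExp
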