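import Mathlib

/-! The transfer of a normal subgroup `R ≤ H` of `F` with values in `H`-coinvariants, and finite generation of
finite index subgroups of free groups. -/

set_option autoImplicit false

open scoped commutatorElement Pointwise

namespace H68.TransHopf

universe u v

section
variable {F : Type u} [Group F] (H : Subgroup F) [H.FiniteIndex] (R : Subgroup F) [R.Normal]
variable {A : Type v} [CommGroup A] (j : R →* A)

noncomputable local instance : Fintype (F ⧸ H) := H.fintypeQuotientOfFiniteIndex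

/-- `r ↦ ∏ j (t⁻¹ r t)` -/
noncomputable def V : R →* A where
  toFun r := ∏ c : F ⧸ H, j (MulAut.conjNormal (c.out)⁻¹ r)
  map_one' := by simp
  map_mul' a b := by simp [Finset.prod_mul_distrib]

theorem V_apply (r : R) : V H R j r = ∏ c : F ⧸ H, j (MulAut.conjNormal (c.out)⁻¹ r) := rfl

theorem V_conj (hj : ∀ (h : F) (r : R), h ∈ H → j (MulAut.conjNormal h r) = j r) (f : F) (r : R) :
    V H R j (MulAut.conjNormal f r) = V H R j r := by
  rw [V_apply, V_apply]
  refine Fintype.prod_equiv (MulAction.toPerm f⁻¹) _ _ (fun c => ?_)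
  show j (MulAut.conjNormal (c.out)⁻¹ (MulAut.conjNormal f r)) =
    j (MulAut.conjNormal ((f⁻¹ • c).out)⁻¹ r)
  have h1 : (QuotientGroup.mk ((f⁻¹ • c).out) : F ⧸ H) = QuotientGroup.mk (f⁻¹ * c.out) := by
    rw [QuotientGroup.out_eq']
    conv_lhs => rw [← QuotientGroup.out_eq' c]
    rfl
  rw [QuotientGroup.eq] at h1
  have h2 := hj _ (MulAut.conjNormal ((f⁻¹ * c.out)⁻¹) r) h1
  have h3 : ∀ a b : F, MulAut.conjNormal a (MulAut.conjNormal b r) = MulAut.conjNormal (a * b) r := by
    intro a b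
    rw [map_mul]; rfl
  rw [h3] at h2 ⊢
  have h4 : (c.out)⁻¹ * f = (f⁻¹ * c.out)⁻¹ := by group
  rw [h4, ← h2]
  congr 2
  congr 1
  group

theorem V_eq_transfer (hRH : R ≤ H) (ψ : H →* A) (hψ : ∀ r : R, j r = ψ ⟨r, hRH r.2⟩) (r : R) :
    V H R j r = MonoidHom.transfer ψ (r : F) := by
  have hfix : ∀ c : F ⧸ H, (r : F)⁻¹ • c = c := by
    intro c
    induction c using QuotientGroup.induction_on with
    | H x =>
      show (QuotientGroup.mk ((r : F)⁻¹ * x) : F ⧸ H) = QuotientGroup.mk x
      rw [QuotientGroup.eq]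
      have h1 : ((r : F)⁻¹ * x)⁻¹ * x = x⁻¹ * r * x⁻¹⁻¹ := by group
      rw [h1]
      exact hRH ((inferInstance : R.Normal).conj_mem _ r.2 _)
  let T : H.LeftTransversal := ⟨Set.range (Quotient.out : F ⧸ H → F),
    Subgroup.isComplement_range_left (fun q => QuotientGroup.out_eq' q)⟩
  have hT : ∀ q : F ⧸ H, ((T.2.leftQuotientEquiv q : T.1) : F) = q.out := by
    intro q
    exact Subgroup.IsComplement.leftQuotientEquiv_apply (fun q => QuotientGroup.out_eq' q) q
  rw [MonoidHom.transfer_def ψ T, V_apply]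
  unfold Subgroup.leftTransversals.diff
  refine Finset.prod_congr rfl (fun c _ => ?_)
  rw [hψ]
  congr 1
  apply Subtype.ext
  show _ = ((T.2.leftQuotientEquiv c : T.1) : F)⁻¹ * ((((r : F) • T).2.leftQuotientEquiv c : _) : F)
  rw [Subgroup.smul_apply_eq_smul_apply_inv_smul, hfix, hT]
  simp [mul_assoc]

end

theorem finite_of_fg {ι : Type u} (h : Group.FG (FreeGroup ι)) : Finite ι := by
  classical
  obtain ⟨S, hS⟩ := (Group.fg_def).1 h
  let φ : ι → FreeGroup ι →* Multiplicative (ZMod 2) := fun i =>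
    FreeGroup.lift (fun k => if k = i then Multiplicative.ofAdd 1 else 1)
  let ψ : FreeGroup ι →* Multiplicative (ι →₀ ℤ) :=
    FreeGroup.lift (fun i => Multiplicative.ofAdd (Finsupp.single i 1))
  by_contra hinf
  have hinf' : Infinite ι := not_finite_iff_infinite.1 hinf
  let T : Finset ι := S.biUnion (fun s => (Multiplicative.toAdd (ψ s)).support)
  obtain ⟨i, hi⟩ := Infinite.exists_notMem_finset T
  let χ : Multiplicative (ι →₀ ℤ) →* Multiplicative ℤ :=
    AddMonoidHom.toMultiplicative (Finsupp.applyAddHom i)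
  have h1 : (χ.comp ψ).ker = ⊤ := by
    rw [eq_top_iff, ← hS, Subgroup.closure_le]
    intro s hs
    rw [SetLike.mem_coe, MonoidHom.mem_ker]
    show Multiplicative.ofAdd ((Multiplicative.toAdd (ψ s)) i) = 1
    have h2 : (Multiplicative.toAdd (ψ s)) i = 0 := by
      by_contra h3
      apply hi
      rw [Finset.mem_biUnion]
      exact ⟨s, hs, Finsupp.mem_support_iff.2 h3⟩
    rw [h2]; rfl
  have h2 : FreeGroup.of i ∈ (χ.comp ψ).ker := by rw [h1]; trivial
  rw [MonoidHom.mem_ker] at h2
  have h3 : (χ.comp ψ) (FreeGroup.of i) = Multiplicative.ofAdd 1 := by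
    show χ (ψ (FreeGroup.of i)) = _
    simp only [ψ, FreeGroup.lift_apply_of]
    show Multiplicative.ofAdd ((Finsupp.single i (1:ℤ)) i) = _
    rw [Finsupp.single_eq_same]
  rw [h3] at h2
  have h4 := Multiplicative.ofAdd.injective (h2.trans ofAdd_zero.symm)
  exact one_ne_zero h4

end H68.TransHopf
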