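import Cfsg.Agent.Lib.H69.SchurCover
import Cfsg.Agent.Lib.H68.TransHopf

/-! Restriction and corestriction between Schur multipliers, by the Hopf formula. -/

set_option autoImplicit false

open scoped commutatorElement Pointwise IsMulCommutative

namespace H68.SchurTrans

open H69.SchurUniv H69.SchurCover H68.TransHopf

universe u v w

section

variable {G : Type u} [Group G] [Finite G] (P : Subgroup G)

/-- preimage of `P` in the free group -/
abbrev FP : Subgroup (FreeGroup G) := P.comap (canon G)

instance finiteIndex_FP : (FP P).FiniteIndex := by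
  constructor
  rw [Subgroup.index_comap_of_surjective _ (canon_surjective G)]
  exact Subgroup.index_ne_zero_of_finite

noncomputable def eP : FreeGroup (IsFreeGroup.Generators (FP P)) ≃* FP P := IsFreeGroup.mulEquiv (FP P)

instance finite_gen : Finite (IsFreeGroup.Generators (FP P)) := by
  apply finite_of_fg
  have h1 : Group.FG (FP P) := inferInstance
  exact Group.fg_of_surjective (f := (eP P).symm.toMonoidHom) (eP P).symm.surjective

noncomputable def fP : FreeGroup (IsFreeGroup.Generators (FP P)) →* P :=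
  ((canon G).subgroupComap P).comp (eP P).toMonoidHom

theorem fP_surjective : Function.Surjective (fP P) := by
  intro x
  obtain ⟨y, hy⟩ := canon_surjective G x
  refine ⟨(eP P).symm ⟨y, by rw [Subgroup.mem_comap, hy]; exact x.2⟩, ?_⟩
  apply Subtype.ext
  have h1 := (eP P).apply_symm_apply ⟨y, by rw [Subgroup.mem_comap, hy]; exact x.2⟩
  show canon G ((eP P ((eP P).symm ⟨y, _⟩) : FP P) : FreeGroup G) = x
  rw [h1]
  exact hy

/-- inclusion -/
noncomputable def inc : FreeGroup (IsFreeGroup.Generators (FP P)) →* FreeGroup G :=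
  (FP P).subtype.comp (eP P).toMonoidHom

theorem canon_inc (x : FreeGroup (IsFreeGroup.Generators (FP P))) : canon G (inc P x) = (fP P x : G) := rfl

theorem inc_mem_ker {x : FreeGroup (IsFreeGroup.Generators (FP P))} (hx : x ∈ (fP P).ker) :
    inc P x ∈ (canon G).ker := by
  rw [MonoidHom.mem_ker, canon_inc, MonoidHom.mem_ker.1 hx]; rfl

theorem relSub_le_comap : relSub (fP P) ≤ (relSub (canon G)).comap (inc P) := by
  rw [Subgroup.commutator_le]
  intro a ha b _
  rw [Subgroup.mem_comap, map_commutatorElement]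
  exact Subgroup.commutator_mem_commutator (inc_mem_ker P ha) (Subgroup.mem_top _)

/-- corestriction -/
noncomputable def cor : Ext (fP P) →* Ext (canon G) :=
  QuotientGroup.map _ _ (inc P) (relSub_le_comap P)

theorem cor_mk (x : FreeGroup (IsFreeGroup.Generators (FP P))) :
    cor P (QuotientGroup.mk x) = QuotientGroup.mk (inc P x) := rfl

theorem cor_mem {x : Ext (fP P)} (hx : x ∈ M (fP P)) : cor P x ∈ M (canon G) := by
  obtain ⟨h1, h2⟩ := Subgroup.mem_inf.1 hx
  refine Subgroup.mem_inf.2 ⟨?_, ?_⟩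
  · obtain ⟨x, rfl⟩ := QuotientGroup.mk_surjective x
    rw [cor_mk]
    exact inc_mem_ker P h1
  · have h3 : (commutator (Ext (fP P))).map (cor P) ≤ commutator (Ext (canon G)) := by
      rw [commutator_def, commutator_def, Subgroup.map_commutator]
      exact Subgroup.commutator_mono le_top le_top
    exact h3 ⟨x, h2, rfl⟩

theorem ker_le_FP : (canon G).ker ≤ FP P := by
  intro x hx
  rw [Subgroup.mem_comap, MonoidHom.mem_ker.1 hx]
  exact P.one_mem

/-- class of an element of `F_P` in `F_P / [F_P, R]` -/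
noncomputable def cls : FP P →* Ext (fP P) :=
  (QuotientGroup.mk' (relSub (fP P))).comp (eP P).symm.toMonoidHom

theorem cls_eq (x : FP P) : cls P x = QuotientGroup.mk ((eP P).symm x) := rfl

theorem pr_cls (x : FP P) : ((pr (fP P) (cls P x) : P) : G) = canon G x := by
  rw [cls_eq, pr_mk]
  show canon G ((eP P ((eP P).symm x) : FP P) : FreeGroup G) = canon G x
  rw [(eP P).apply_symm_apply]

theorem cls_mem_ker (r : (canon G).ker) : cls P ⟨r, ker_le_FP P r.2⟩ ∈ (pr (fP P)).ker := by
  rw [MonoidHom.mem_ker]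
  apply Subtype.ext
  rw [pr_cls]
  exact r.2

noncomputable def jj : (canon G).ker →* Subgroup.center (Ext (fP P)) :=
  ((cls P).comp (Subgroup.inclusion (ker_le_FP P))).codRestrict _
    (fun r => ker_pr_le_center _ (cls_mem_ker P r))

theorem jj_coe (r : (canon G).ker) : (jj P r : Ext (fP P)) = cls P ⟨r, ker_le_FP P r.2⟩ := rfl

theorem jj_conj (h : FreeGroup G) (r : (canon G).ker) (hh : h ∈ FP P) :
    jj P (MulAut.conjNormal h r) = jj P r := by
  apply Subtype.ext
  rw [jj_coe, jj_coe]
  have h1 : (⟨((MulAut.conjNormal h r : (canon G).ker) : FreeGroup G), ker_le_FP P (Subtype.prop _)⟩ : FP P) =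
      ⟨h, hh⟩ * ⟨r, ker_le_FP P r.2⟩ * ⟨h, hh⟩⁻¹ := by
    apply Subtype.ext
    rfl
  rw [h1, map_mul, map_mul, ker_pr_comm (fP P) (cls_mem_ker P r), map_inv, mul_assoc, mul_inv_cancel, mul_one]

noncomputable def VV : (canon G).ker →* Subgroup.center (Ext (fP P)) := V (FP P) (canon G).ker (jj P)

theorem VV_relSub (x : FreeGroup G) (hx : x ∈ relSub (canon G)) :
    VV P ⟨x, relSub_le _ hx⟩ = 1 := by
  have h1 : relSub (canon G) ≤ (VV P).ker.map (canon G).ker.subtype := by
    rw [Subgroup.commutator_le]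
    intro a ha b _
    refine ⟨⟨a, ha⟩ * (MulAut.conjNormal b ⟨a, ha⟩)⁻¹, ?_, ?_⟩
    · rw [SetLike.mem_coe, MonoidHom.mem_ker, map_mul, map_inv]
      unfold VV
      rw [V_conj _ _ _ (jj_conj P), mul_inv_cancel]
    · simp [commutatorElement_def, mul_assoc]
  obtain ⟨y, hy, hyx⟩ := h1 hx
  have h2 : y = ⟨x, relSub_le _ hx⟩ := Subtype.ext hyx
  rw [← h2]
  exact hy

theorem VV_congr (r s : (canon G).ker)
    (h : (QuotientGroup.mk (r : FreeGroup G) : Ext (canon G)) = QuotientGroup.mk (s : FreeGroup G)) :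
    VV P r = VV P s := by
  rw [QuotientGroup.eq] at h
  have h1 := VV_relSub P _ h
  have h2 : (⟨(r : FreeGroup G)⁻¹ * s, relSub_le _ h⟩ : (canon G).ker) = r⁻¹ * s := rfl
  rw [h2, map_mul, map_inv, inv_mul_eq_one] at h1
  exact h1

theorem VV_mem_ker (r : (canon G).ker) : ((VV P r : Subgroup.center (Ext (fP P))) : Ext (fP P)) ∈ (pr (fP P)).ker := by
  have h1 : (VV P r) ∈ ((pr (fP P)).ker.subgroupOf (Subgroup.center (Ext (fP P)))) := by
    unfold VV
    rw [V_apply]
    apply Subgroup.prod_mem
    intro c _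
    rw [Subgroup.mem_subgroupOf, jj_coe]
    exact cls_mem_ker P _
  exact h1

theorem VV_mem_commutator (r : (canon G).ker)
    (hr : (QuotientGroup.mk (r : FreeGroup G) : Ext (canon G)) ∈ commutator (Ext (canon G))) :
    ((VV P r : Subgroup.center (Ext (fP P))) : Ext (fP P)) ∈ commutator (Ext (fP P)) := by
  have hr' : (r : FreeGroup G) ∈ commutator (FreeGroup G) := by
    have h1 : (commutator (FreeGroup G)).map (QuotientGroup.mk' (relSub (canon G))) =
        commutator (Ext (canon G)) := by
      rw [commutator_def, commutator_def, Subgroup.map_commutator,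
        Subgroup.map_top_of_surjective _ (QuotientGroup.mk'_surjective _)]
    rw [← h1] at hr
    obtain ⟨c, hc, hcr⟩ := hr
    rw [QuotientGroup.mk'_apply, QuotientGroup.eq] at hcr
    have h2 : relSub (canon G) ≤ commutator (FreeGroup G) := Subgroup.commutator_mono le_top le_rfl
    have h3 := (commutator (FreeGroup G)).mul_mem hc (h2 hcr)
    rwa [mul_inv_cancel_left] at h3
  rw [← Abelianization.ker_of, MonoidHom.mem_ker]
  let ab' : Subgroup.center (Ext (fP P)) →* Abelianization (Ext (fP P)) :=
    Abelianization.of.comp (Subgroup.center (Ext (fP P))).subtype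
  let ψ : FP P →* Abelianization (Ext (fP P)) := Abelianization.of.comp (cls P)
  have h1 := V_eq_transfer (FP P) (canon G).ker (ab'.comp (jj P)) (ker_le_FP P) ψ (fun r => rfl) r
  have h2 : MonoidHom.transfer ψ (r : FreeGroup G) = 1 := by
    have h3 : commutator (FreeGroup G) ≤ (MonoidHom.transfer ψ).ker :=
      Abelianization.commutator_subset_ker _
    exact h3 hr'
  rw [h2, V_apply] at h1
  rw [← h1]
  show ab' (VV P r) = _
  unfold VV
  rw [V_apply, map_prod]
  rfl

theorem cor_VV (r : (canon G).ker) :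
    cor P ((VV P r : Subgroup.center (Ext (fP P))) : Ext (fP P)) =
      (QuotientGroup.mk (r : FreeGroup G)) ^ P.index := by
  have hin : ∀ s : (canon G).ker, cor P (jj P s : Ext (fP P)) = QuotientGroup.mk (s : FreeGroup G) := by
    intro s
    rw [jj_coe, cls_eq, cor_mk]
    simp [inc]
  have hcent : ∀ s : (canon G).ker, (QuotientGroup.mk (s : FreeGroup G) : Ext (canon G)) ∈
      Subgroup.center (Ext (canon G)) := fun s => ker_pr_le_center (canon G) s.2
  let c1 : (canon G).ker →* Subgroup.center (Ext (canon G)) :=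
    ((QuotientGroup.mk' (relSub (canon G))).comp (canon G).ker.subtype).codRestrict _ hcent
  have hconj : ∀ (f : FreeGroup G) (s : (canon G).ker), c1 (MulAut.conjNormal f s) = c1 s := by
    intro f s
    apply Subtype.ext
    show (QuotientGroup.mk (f * (s : FreeGroup G) * f⁻¹) : Ext (canon G)) = QuotientGroup.mk (s : FreeGroup G)
    rw [QuotientGroup.mk_mul, QuotientGroup.mk_mul, QuotientGroup.mk_inv,
      ker_pr_comm (canon G) (x := QuotientGroup.mk (s : FreeGroup G)) s.2, mul_assoc, mul_inv_cancel, mul_one]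
  have key : ∀ (T : Finset (FreeGroup G ⧸ FP P)) ,
      cor P ((∏ c ∈ T, jj P (MulAut.conjNormal (c.out)⁻¹ r) : Subgroup.center (Ext (fP P))) : Ext (fP P)) =
        (QuotientGroup.mk (r : FreeGroup G)) ^ T.card := by
    classical
    intro T
    induction T using Finset.induction_on with
    | empty => simp
    | insert a T ha ih =>
      rw [Finset.prod_insert ha, Finset.card_insert_of_notMem ha, Subgroup.coe_mul, map_mul, ih, hin, pow_succ']
      congr 1
      have h1 := congrArg Subtype.val (hconj (a.out)⁻¹ r)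
      exact h1
  letI : Fintype (FreeGroup G ⧸ FP P) := (FP P).fintypeQuotientOfFiniteIndex
  have h5 : (Finset.univ : Finset (FreeGroup G ⧸ FP P)).card = P.index := by
    rw [Finset.card_univ, ← Nat.card_eq_fintype_card, ← Subgroup.index_eq_card,
      Subgroup.index_comap_of_surjective _ (canon_surjective G)]
  rw [← h5, ← key Finset.univ]
  rfl

/-- transfer `M(G) → M(P)` with `cor ∘ tr = |G : P|` -/
theorem exists_tr : ∃ tr : M (canon G) →* M (fP P), ∀ x : M (canon G),
    cor P (tr x : Ext (fP P)) = (x : Ext (canon G)) ^ P.index := by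
  have hch : ∀ x : M (canon G), ∃ r : (canon G).ker, (QuotientGroup.mk (r : FreeGroup G) : Ext (canon G)) = x := by
    rintro ⟨x, hx⟩
    obtain ⟨h1, _⟩ := Subgroup.mem_inf.1 hx
    obtain ⟨x, rfl⟩ := QuotientGroup.mk_surjective x
    exact ⟨⟨x, h1⟩, rfl⟩
  choose s hs using hch
  refine ⟨MonoidHom.mk' (fun x => ⟨VV P (s x), Subgroup.mem_inf.2 ⟨VV_mem_ker P _, VV_mem_commutator P _ ?_⟩⟩) ?_, ?_⟩
  · rw [hs]
    exact (Subgroup.mem_inf.1 x.2).2
  · intro a b
    apply Subtype.ext
    show ((VV P (s (a * b)) : Subgroup.center (Ext (fP P))) : Ext (fP P)) = _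
    rw [VV_congr P (s (a * b)) (s a * s b) (by
      rw [hs, Subgroup.coe_mul, Subgroup.coe_mul, QuotientGroup.mk_mul, hs, hs]), map_mul]
    rfl
  · intro x
    show cor P ((VV P (s x) : Subgroup.center (Ext (fP P))) : Ext (fP P)) = _
    rw [cor_VV, hs]

end

theorem exists_cor_tr {G : Type u} [Group G] [Finite G] (P : Subgroup G) {A : Type v} {B : Type w}
    [CommGroup A] [CommGroup B] (hA : Cfsg.HasSchurMultiplier G A) (hB : Cfsg.HasSchurMultiplier P B) :
    ∃ (tr : A →* B) (co : B →* A), ∀ a, co (tr a) = a ^ P.index := by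
  obtain ⟨eA⟩ := nonempty_equiv_M hA (canon G) (canon_surjective G)
  obtain ⟨eB⟩ := nonempty_equiv_M hB (fP P) (fP_surjective P)
  obtain ⟨tr, htr⟩ := exists_tr P
  let co : M (fP P) →* M (canon G) :=
    ((cor P).comp (M (fP P)).subtype).codRestrict _ (fun x => cor_mem P x.2)
  refine ⟨eB.symm.toMonoidHom.comp (tr.comp eA.toMonoidHom), eA.symm.toMonoidHom.comp (co.comp eB.toMonoidHom), ?_⟩
  intro a
  have h1 : co (tr (eA a)) = (eA a) ^ P.index := Subtype.ext (htr _)
  show eA.symm (co (eB (eB.symm (tr (eA a))))) = _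
  rw [eB.apply_symm_apply, h1, map_pow, eA.symm_apply_apply]

end H68.SchurTrans
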